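import Mathlib

set_option autoImplicit false
set_option linter.all false

namespace Cfsg.Agent.Star.NPCdeg

theorem conj_pow {E B : Type*} [Ring E] [CommRing B] (ι : B →+* E) (σ : B →+* B) (g : E)
    (hg : ∀ b, g * ι b = ι (σ b) * g) (i : ℕ) (b : B) :
    g ^ i * ι b = ι ((σ ^ i) b) * g ^ i := by
  induction i generalizing b with
  | zero => simp
  | succ i ih =>
    rw [pow_succ, mul_assoc, hg, ← mul_assoc, ih, mul_assoc]
    rw [pow_succ, RingHom.mul_def, RingHom.comp_apply]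

/-- Artin's elimination for a semilinear relation. -/
theorem elim_claim {E B : Type*} [Ring E] [CommRing B] (ι : B →+* E) (σ : B →+* B) (g : E)
    (hg : ∀ b, g * ι b = ι (σ b) * g) (p : ℕ) (c : ℕ → ℤ)
    (hsum : ∑ i ∈ Finset.range p, (c i : E) * g ^ i = 0) (f : ℕ → B) (m : ℕ) :
    ∀ b : B, ∑ i ∈ Finset.range p,
      ι ((∏ k ∈ Finset.range m, ((σ ^ i) (f k) - (σ ^ (k + 1)) (f k))) * (σ ^ i) b) *
        ((c i : E) * g ^ i) = 0 := by
  induction m with
  | zero =>
    intro b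
    have h : (∑ i ∈ Finset.range p, (c i : E) * g ^ i) * ι b = 0 := by rw [hsum, zero_mul]
    rw [Finset.sum_mul] at h
    rw [← h]
    refine Finset.sum_congr rfl fun i _ => ?_
    rw [Finset.range_zero, Finset.prod_empty, one_mul, mul_assoc, conj_pow ι σ g hg, ← mul_assoc,
      ← mul_assoc]
    congr 1
    exact (Int.cast_comm _ _).symm
  | succ m ih =>
    intro b
    have h1 := ih (f m * b)
    have h2 : ι ((σ ^ (m + 1)) (f m)) * ∑ i ∈ Finset.range p,
      ι ((∏ k ∈ Finset.range m, ((σ ^ i) (f k) - (σ ^ (k + 1)) (f k))) * (σ ^ i) b) *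
        ((c i : E) * g ^ i) = 0 := by rw [ih b, mul_zero]
    rw [Finset.mul_sum] at h2
    have h3 := congrArg₂ (· - ·) h1 h2
    simp only [sub_self] at h3
    rw [← h3, ← Finset.sum_sub_distrib]
    refine Finset.sum_congr rfl fun i _ => ?_
    rw [← mul_assoc (ι ((σ ^ (m + 1)) (f m))), ← sub_mul, ← map_mul, ← map_sub, Finset.prod_range_succ]
    congr 2
    rw [map_mul]
    ring

theorem elim {E B : Type*} [Ring E] [CommRing B] (ι : B →+* E) (hι : Function.Injective ι)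
    (σ : B →+* B) (g : E)
    (hg : ∀ b, g * ι b = ι (σ b) * g) (p : ℕ) (c : ℕ → ℤ) (hc0 : IsUnit (c 0)) (hp : 0 < p)
    (hsum : ∑ i ∈ Finset.range p, (c i : E) * g ^ i = 0) (f : ℕ → B) :
    ∏ k ∈ Finset.range (p - 1), (f k - (σ ^ (k + 1)) (f k)) = 0 := by
  have h := elim_claim ι σ g hg p c hsum f (p - 1) 1
  rw [Finset.sum_eq_single_of_mem 0 (Finset.mem_range.2 hp)] at h
  · rw [pow_zero, pow_zero, mul_one, map_one, mul_one] at h
    have hu : IsUnit ((c 0 : ℤ) : E) := hc0.map (Int.castRingHom E)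
    have h' : ι (∏ k ∈ Finset.range (p - 1), ((1 : B →+* B) (f k) - (σ ^ (k + 1)) (f k))) = 0 :=
      hu.mul_left_eq_zero.1 h
    exact hι (by rw [map_zero]; exact h')
  · intro i hi hi0
    have hi' := Finset.mem_range.1 hi
    have h0 : (∏ k ∈ Finset.range (p - 1), ((σ ^ i) (f k) - (σ ^ (k + 1)) (f k))) = 0 := by
      refine Finset.prod_eq_zero (i := i - 1) (Finset.mem_range.2 (by omega)) ?_
      rw [Nat.sub_add_cancel (by omega : 1 ≤ i), sub_self]
    rw [h0, zero_mul, map_zero, zero_mul]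

theorem sub_pow_eq_zero {E B : Type*} [Ring E] [CommRing B] (ι : B →+* E)
    (hι : Function.Injective ι) (σ : B →+* B) (g : E)
    (hg : ∀ b, g * ι b = ι (σ b) * g) (p : ℕ) (hp : p.Prime) (c : ℕ → ℤ) (hc0 : IsUnit (c 0))
    (hsum : ∑ i ∈ Finset.range p, (c i : E) * g ^ i = 0) (s : ℕ) (hσ : σ ^ (p ^ s) = 1) (b : B) :
    (b - σ b) ^ (p - 1) = 0 := by
  have key : ∀ k : ℕ, k < p - 1 → ∃ f : B, f - (σ ^ (k + 1)) f = b - σ b := by
    intro k hk
    have hcop : Nat.Coprime (k + 1) (p ^ s) := by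
      refine Nat.Coprime.pow_right _ ?_
      refine (Nat.coprime_comm.1 ((Nat.Prime.coprime_iff_not_dvd hp).2 fun h => ?_))
      have := Nat.le_of_dvd (by omega) h
      omega
    obtain ⟨m, hm⟩ : ∃ m, (k + 1) * m ≡ 1 [MOD p ^ s] := by
      rcases Nat.lt_or_ge 1 (p ^ s) with h1 | h1
      · obtain ⟨m, hm⟩ := Nat.exists_mul_mod_eq_one_of_coprime hcop h1
        refine ⟨m, ?_⟩
        unfold Nat.ModEq
        rw [hm.2, Nat.mod_eq_of_lt h1]
      · have : p ^ s = 1 := le_antisymm h1 (Nat.pos_of_ne_zero (pow_ne_zero _ hp.ne_zero))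
        exact ⟨0, by rw [this]; exact Nat.modEq_one⟩
    have hpow : σ ^ ((k + 1) * m) = σ := by
      have hd : orderOf σ ∣ p ^ s := orderOf_dvd_of_pow_eq_one hσ
      have h2 : (k + 1) * m ≡ 1 [MOD orderOf σ] := hm.of_dvd hd
      rw [← pow_mod_orderOf, h2, pow_mod_orderOf, pow_one]
    refine ⟨∑ j ∈ Finset.range m, (σ ^ ((k + 1) * j)) b, ?_⟩
    rw [map_sum, ← Finset.sum_sub_distrib]
    have h3 : ∀ j ∈ Finset.range m, (σ ^ ((k + 1) * j)) b - (σ ^ (k + 1)) ((σ ^ ((k + 1) * j)) b) =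
        (σ ^ ((k + 1) * j)) b - (σ ^ ((k + 1) * (j + 1))) b := by
      intro j _
      congr 1
      have h4 : σ ^ ((k + 1) * (j + 1)) = σ ^ (k + 1) * σ ^ ((k + 1) * j) := by
        rw [← pow_add]; congr 1; ring
      rw [h4, RingHom.mul_def, RingHom.comp_apply]
    rw [Finset.sum_congr rfl h3, Finset.sum_range_sub' (fun j => (σ ^ ((k + 1) * j)) b)]
    rw [mul_zero, pow_zero, hpow]
    rfl
  choose! f hf using key
  have h := elim ι hι σ g hg p c hc0 hp.pos hsum f
  rw [Finset.prod_congr rfl (fun k hk => hf k (Finset.mem_range.1 hk)), Finset.prod_const,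
    Finset.card_range] at h
  exact h

end Cfsg.Agent.Star.NPCdeg
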