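import Mathlib
import Cfsg.Agent.H2.Reduct
import Cfsg.Agent.Star.NPCElim

set_option autoImplicit false
set_option linter.all false

namespace Cfsg.Agent.Star.NPCdeg

open Subgroup
open scoped commutatorElement

section ops

variable {Q : Type*} [Group Q] (U : Subgroup Q) [U.Normal]

/-- Conjugation operators on the additive group of an abelian normal subgroup. -/
noncomputable def rho {C : Type*} [CommGroup C] (e : U ≃* C) : Q →* AddMonoid.End (Additive C) where
  toFun q := MonoidHom.toAdditive ((e.toMonoidHom.comp (MulAut.conjNormal q).toMonoidHom).comp e.symm.toMonoidHom)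
  map_one' := by
    refine AddMonoidHom.ext fun x => ?_
    show Additive.ofMul (e ((MulAut.conjNormal (1 : Q)) (e.symm (Additive.toMul x)))) = x
    rw [map_one, MulAut.one_apply, MulEquiv.apply_symm_apply]
    rfl
  map_mul' a b := by
    refine AddMonoidHom.ext fun x => ?_
    show Additive.ofMul (e ((MulAut.conjNormal (a * b)) (e.symm (Additive.toMul x)))) =
      Additive.ofMul (e ((MulAut.conjNormal a) (e.symm (e ((MulAut.conjNormal b) (e.symm (Additive.toMul x)))))))
    rw [map_mul, MulAut.mul_apply, MulEquiv.symm_apply_apply]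

end ops

/-- The main operator statement: if `N` acts commutatively on an elementary abelian normal subgroup `U` of
exponent `p`, `N` normalized by `g` of `p`-power order, `[U, g; p-1] = 1`, then `n ^ p` and `(g n g⁻¹) ^ p` act
in the same way. -/
theorem pow_act_eq {Q : Type*} [Group Q] [Finite Q] {p : ℕ} [hp : Fact p.Prime] {U N : Subgroup Q} [U.Normal]
    [N.Normal] (hU : U ≠ ⊥) (hUc : U ≤ centralizer (U : Set Q)) (hUp : ∀ u ∈ U, u ^ p = 1)
    (hN : ∀ a ∈ N, ∀ b ∈ N, ∀ u ∈ U, a * b * u * (a * b)⁻¹ = b * a * u * (b * a)⁻¹) {g : Q} {s : ℕ}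
    (hg : g ^ (p ^ s) = 1)
    (hit : Cfsg.iterCommutator U (zpowers g) (p - 1) = ⊥) {n : Q} (hn : n ∈ N) :
    ∀ u ∈ U, n ^ p * u * (n ^ p)⁻¹ = (g * n * g⁻¹) ^ p * u * ((g * n * g⁻¹) ^ p)⁻¹ := by
  classical
  letI : CommGroup U := { (inferInstance : Group U) with
    mul_comm := fun a b => Subtype.ext (mem_centralizer_iff.1 (hUc b.2) a a.2) }
  set ρ : Q →* AddMonoid.End (Additive U) := rho U (MulEquiv.refl U) with hρ
  have hρa : ∀ (q : Q) (u : U), ((Additive.toMul (ρ q (Additive.ofMul u)) : U) : Q) = q * u * q⁻¹ := by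
    intro q u
    rfl
  have hext : ∀ a b : Q, (∀ u ∈ U, a * u * a⁻¹ = b * u * b⁻¹) → ρ a = ρ b := by
    intro a b h
    refine AddMonoidHom.ext fun u => ?_
    apply Additive.toMul.injective
    apply Subtype.ext
    have := h (Additive.toMul u : U) (Additive.toMul u : U).2
    exact this
  have hcomm : ∀ x ∈ (ρ '' (N : Set Q)), ∀ y ∈ (ρ '' (N : Set Q)), x * y = y * x := by
    rintro _ ⟨a, ha, rfl⟩ _ ⟨b, hb, rfl⟩
    rw [← map_mul, ← map_mul]
    exact hext _ _ fun u hu => hN a ha b hb u hu
  set B : Subring (AddMonoid.End (Additive U)) := Subring.closure (ρ '' (N : Set Q)) with hB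
  letI : CommRing B := Subring.closureCommRingOfComm hcomm
  -- conjugation by ρ g
  have hgg : ρ g * ρ g⁻¹ = 1 := by rw [← map_mul, mul_inv_cancel, map_one]
  have hgg' : ρ g⁻¹ * ρ g = 1 := by rw [← map_mul, inv_mul_cancel, map_one]
  let cg : AddMonoid.End (Additive U) →+* AddMonoid.End (Additive U) :=
    { toFun := fun x => ρ g * x * ρ g⁻¹
      map_one' := by rw [mul_one, hgg]
      map_mul' := fun x y => by
        calc ρ g * (x * y) * ρ g⁻¹ = ρ g * x * 1 * (y * ρ g⁻¹) := by noncomm_ring
          _ = ρ g * x * (ρ g⁻¹ * ρ g) * (y * ρ g⁻¹) := by rw [hgg']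
          _ = _ := by noncomm_ring
      map_zero' := by simp
      map_add' := fun x y => by rw [mul_add, add_mul] }
  have hcg : ∀ x, cg x = ρ g * x * ρ g⁻¹ := fun _ => rfl
  have hcgB : ∀ x ∈ B, cg x ∈ B := by
    have h1 : B.map cg ≤ B := by
      rw [hB, RingHom.map_closure]
      rw [Subring.closure_le]
      rintro _ ⟨_, ⟨a, ha, rfl⟩, rfl⟩
      rw [hcg, ← map_mul, ← map_mul]
      exact Subring.subset_closure ⟨_, (inferInstance : N.Normal).conj_mem a ha g, rfl⟩
    intro x hx
    exact h1 ⟨x, hx, rfl⟩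
  let σ : B →+* B := cg.restrict B B hcgB
  have hσ : ∀ b : B, ((σ b : B) : AddMonoid.End (Additive U)) = ρ g * b * ρ g⁻¹ := fun _ => rfl
  have hσn : ∀ (k : ℕ) (b : B), (((σ ^ k) b : B) : AddMonoid.End (Additive U)) =
      ρ (g ^ k) * b * ρ ((g ^ k)⁻¹) := by
    intro k
    induction k with
    | zero => intro b; simp
    | succ k ih =>
      intro b
      rw [pow_succ, RingHom.mul_def, RingHom.comp_apply, ih, hσ, pow_succ, mul_inv_rev, map_mul, map_mul]
      noncomm_ring
  have hσ1 : σ ^ (p ^ s) = 1 := by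
    ext1 b
    apply Subtype.ext
    rw [hσn, hg]
    simp
  have hrel : ∀ b : B, ρ g * B.subtype b = B.subtype (σ b) * ρ g := by
    intro b
    show ρ g * (b : AddMonoid.End (Additive U)) = (σ b : AddMonoid.End (Additive U)) * ρ g
    rw [hσ, mul_assoc, hgg', mul_one]
  -- (ρ g - 1)^(p-1) = 0
  have hnil : ∀ (k : ℕ) (u : Additive U),
      ((Additive.toMul (((ρ g - 1) ^ k) u) : U) : Q) ∈ Cfsg.iterCommutator U (zpowers g) k := by
    intro k
    induction k with
    | zero => intro u; exact (Additive.toMul u : U).2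
    | succ k ih =>
      intro u
      rw [pow_succ']
      have h1 := ih u
      set w := ((ρ g - 1) ^ k) u with hw
      have h2 : ((ρ g - 1) * (ρ g - 1) ^ k) u = ρ g w - w := rfl
      rw [h2]
      have h3 : ((Additive.toMul (ρ g w - w) : U) : Q) =
          g * (Additive.toMul w : U) * g⁻¹ * ((Additive.toMul w : U) : Q)⁻¹ := by
        rw [toMul_sub]
        rw [div_eq_mul_inv]
        rfl
      rw [h3]
      show g * (Additive.toMul w : U) * g⁻¹ * ((Additive.toMul w : U) : Q)⁻¹ ∈
        ⁅Cfsg.iterCommutator U (zpowers g) k, zpowers g⁆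
      rw [commutator_comm]
      exact commutator_mem_commutator (mem_zpowers g) h1
  have hnil0 : (ρ g - 1) ^ (p - 1) = 0 := by
    refine AddMonoidHom.ext fun u => ?_
    apply Additive.toMul.injective
    apply Subtype.ext
    have h1 := hnil (p - 1) u
    rw [hit, mem_bot] at h1
    exact h1
  have hsum : ∑ i ∈ Finset.range p,
      ((((-1 : ℤ) ^ (p - 1 - i) * ((p - 1).choose i : ℤ) : ℤ)) : AddMonoid.End (Additive U)) * (ρ g) ^ i = 0 := by
    have h1 := (Commute.neg_one_right (ρ g)).add_pow (p - 1)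
    rw [← sub_eq_add_neg, hnil0, Nat.sub_add_cancel hp.out.one_le] at h1
    rw [h1]
    refine Finset.sum_congr rfl fun i _ => ?_
    push_cast
    have h2 : Commute (ρ g ^ i) ((-1 : AddMonoid.End (Additive U)) ^ (p - 1 - i)) :=
      ((Commute.neg_one_right (ρ g)).pow_left i).pow_right _
    rw [h2.eq, mul_assoc, mul_assoc]
    congr 1
    exact (Nat.cast_commute _ _).eq
  have hmain := fun b : B => sub_pow_eq_zero B.subtype (fun _ _ h => Subtype.ext h) σ (ρ g) hrel p hp.out
    (fun i => (-1 : ℤ) ^ (p - 1 - i) * ((p - 1).choose i : ℤ)) (by simpa using (isUnit_one (M := ℤ)).neg.pow (p - 1)) hsum s hσ1 b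
  -- char p
  have hp0 : ((p : ℕ) : B) = 0 := by
    apply Subtype.ext
    rw [Subring.coe_natCast]
    refine AddMonoidHom.ext fun u => ?_
    apply Additive.toMul.injective
    apply Subtype.ext
    have h1 : (((p : ℕ) : AddMonoid.End (Additive U)) u) = p • u := by
      simp
    show ((Additive.toMul (((p : ℕ) : AddMonoid.End (Additive U)) u) : U) : Q) = 1
    rw [h1, toMul_nsmul]
    exact hUp _ (Additive.toMul u : U).2
  haveI : Nontrivial B := by
    obtain ⟨u, hu, hu1⟩ := (Subgroup.ne_bot_iff_exists_ne_one.1 hU).imp fun a ha => (⟨a.2, ha⟩ : _ ∧ _)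
    refine ⟨⟨0, 1, fun h => ?_⟩⟩
    have h1 : (0 : AddMonoid.End (Additive U)) = 1 := congrArg Subtype.val h
    have h2 := congrArg (fun f : AddMonoid.End (Additive U) => f (Additive.ofMul u)) h1
    apply hu1
    exact (Additive.toMul.injective h2.symm : _)
  haveI : CharP B p := (CharP.charP_iff_prime_eq_zero hp.out).2 hp0
  have hpow : ∀ b : B, b ^ p = (σ b) ^ p := by
    intro b
    have h1 : (b - σ b) ^ p = 0 := by
      rw [← Nat.sub_add_cancel hp.out.one_le, pow_succ, hmain, zero_mul]
    rw [sub_pow_char] at h1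
    exact sub_eq_zero.1 h1
  have hb : ρ n ∈ B := Subring.subset_closure ⟨n, hn, rfl⟩
  have h1 := congrArg Subtype.val (hpow ⟨ρ n, hb⟩)
  rw [Subring.coe_pow, Subring.coe_pow, hσ] at h1
  simp only at h1
  rw [← map_mul, ← map_mul, ← map_pow, ← map_pow] at h1
  intro u hu
  have h2 := congrArg (fun f : AddMonoid.End (Additive U) =>
    ((Additive.toMul (f (Additive.ofMul (⟨u, hu⟩ : U))) : U) : Q)) h1
  simpa only [hρa] using h2

end Cfsg.Agent.Star.NPCdeg
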