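import Mathlib
import Cfsg.Agent.H2.Reduct
import Cfsg.Agent.H2.CritDeg
import Cfsg.Agent.H33.NormConj
import Cfsg.Agent.Star.NPCOps

set_option autoImplicit false
set_option linter.all false

namespace Cfsg.Agent.Star.NPCdeg

open Subgroup Cfsg.Agent.H2
open scoped commutatorElement

theorem chief_quot {X : Type*} [Group X] {U V : Subgroup X} [V.Normal] (h : Cfsg.IsChiefFactor U V) :
    Cfsg.IsChiefFactor (U.map (QuotientGroup.mk' V)) (⊥ : Subgroup (X ⧸ V)) := by
  obtain ⟨hVU, hU, hV, hmax⟩ := h
  haveI := hU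
  have hs := QuotientGroup.mk'_surjective V
  refine ⟨bot_lt_iff_ne_bot.2 fun h => hVU.not_ge (le_iff_map_mk_eq_bot.2 h), hU.map _ hs, inferInstance, ?_⟩
  intro N hN _ hNU
  have hcN : (N.comap (QuotientGroup.mk' V)).Normal := hN.comap _
  have h1 : V ≤ N.comap (QuotientGroup.mk' V) := by
    intro x hx
    rw [mem_comap]
    have h0 : QuotientGroup.mk' V x = 1 := (QuotientGroup.eq_one_iff x).2 hx
    rw [h0]
    exact N.one_mem
  have h2 : N.comap (QuotientGroup.mk' V) ≤ U := by
    refine (comap_mono hNU).trans ?_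
    rw [comap_map_eq, QuotientGroup.ker_mk']
    exact sup_le le_rfl hVU.le
  rcases hmax _ hcN h1 h2 with h3 | h3
  · left
    rw [← map_comap_eq_self_of_surjective hs N, h3]
    exact le_iff_map_mk_eq_bot.1 le_rfl
  · right
    rw [← map_comap_eq_self_of_surjective hs N, h3]

theorem core {X : Type*} [Group X] [Finite X] {p : ℕ} [hp : Fact p.Prime]
    (hquot : Cfsg.HasNormalPComplement p (X ⧸ Cfsg.pCore p X))
    (hcoat : ∀ T : Sylow p X, IsCoatom (T : Subgroup X)) (T : Sylow p X) {g : X}
    (hgT : g ∈ (T : Subgroup X)) (hgP : g ∉ Cfsg.pCore p X) {U V : Subgroup X}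
    (hUV : Cfsg.IsChiefFactor U V) (hUP : U ≤ Cfsg.pCore p X)
    (hit : Cfsg.iterCommutator U (zpowers g) (p - 1) ≤ V) (hne : ¬ ⁅U, zpowers g⁆ ≤ V) : False := by
  classical
  obtain ⟨K, hK, hPK, hcop, k, hk⟩ := exists_complement_over_pCore hquot
  set P := Cfsg.pCore p X with hPdef
  have hPp : IsPGroup p P := Solv.pCore_isPGroup p
  have hPT : P ≤ (T : Subgroup X) := Solv.pCore_le_sylow T
  haveI hPn : P.Normal := by rw [hPdef]; infer_instance
  obtain ⟨hVU, hUn, hVn, hmax⟩ := id hUV
  haveI := hUn
  haveI := hVn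
  have hUp : IsPGroup p U := hPp.to_le hUP
  have hUPV : ⁅U, P⁆ ≤ V := commutator_le_of_chief hUV hPp hUp
  set f := QuotientGroup.mk' V with hf
  have hfs : Function.Surjective f := QuotientGroup.mk'_surjective V
  haveI : (U.map f).Normal := hUn.map f hfs
  haveI : (K.map f).Normal := hK.map f hfs
  have hUP1 : ⁅U.map f, P.map f⁆ = ⊥ := by rw [← map_commutator]; exact le_iff_map_mk_eq_bot.1 hUPV
  have hUPc : P.map f ≤ centralizer (U.map f : Set (X ⧸ V)) := by
    rw [commutator_comm] at hUP1
    exact commutator_eq_bot_iff_le_centralizer.1 hUP1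
  have hUc : U.map f ≤ centralizer (U.map f : Set (X ⧸ V)) := (map_mono hUP).trans hUPc
  have hUb : U.map f ≠ ⊥ := (chief_quot hUV).1.ne'
  have hUe : ∀ u ∈ U.map f, u ^ p = 1 := by
    intro u hu
    have := Cfsg.Agent.H33.chief_pow (p := p) (chief_quot hUV) hUc (hUp.map f) u hu
    exact mem_bot.1 this
  -- K / P abelian
  have hKK : ⁅K, K⁆ ≤ P := by
    set q := QuotientGroup.mk' P with hq
    have hqs : Function.Surjective q := QuotientGroup.mk'_surjective P
    haveI : (K.map q).Normal := hK.map q hqs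
    have hcard : (Nat.card (K.map q)).Coprime p := by
      have h1 : Nat.card (K.map q) = P.relIndex K := by
        have h2 := relIndex_ker K q
        rw [hq, QuotientGroup.ker_mk'] at h2
        exact h2.symm
      rw [h1]; exact hcop
    have hc' : ∀ S : Sylow p (X ⧸ P), IsCoatom (S : Subgroup (X ⧸ P)) := by
      intro S
      -- comap of S contains a Sylow subgroup
      have hSp : IsPGroup p (((S : Subgroup (X ⧸ P)).comap q : Subgroup X)) := by
        refine S.isPGroup'.comap_of_ker_isPGroup q ?_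
        rw [hq, QuotientGroup.ker_mk']; exact hPp
      obtain ⟨S', hS'⟩ := hSp.exists_le_sylow
      have hmapS : (S' : Subgroup X).map q ≤ S := by
        have h1 : IsPGroup p ((S' : Subgroup X).map q) := S'.isPGroup'.map q
        have h2 : (S : Subgroup (X ⧸ P)) ≤ (S' : Subgroup X).map q := by
          rw [← map_comap_eq_self_of_surjective hqs (S : Subgroup (X ⧸ P))]
          exact map_mono hS'
        exact (S.is_maximal' h1 h2).le
      have hcc := hcoat S'
      refine ⟨fun h => ?_, fun M hM => ?_⟩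
      · apply hcc.1
        rw [eq_top_iff]
        have h1 : (S : Subgroup (X ⧸ P)).comap q = ⊤ := by rw [h, comap_top]
        rw [← h1]; exact hS'
      · have h1 : (S' : Subgroup X) < M.comap q := by
          refine lt_of_le_of_ne (map_le_iff_le_comap.1 (hmapS.trans hM.le)) fun h => ?_
          have h2 : M = (S' : Subgroup X).map q := by
            rw [h, map_comap_eq_self_of_surjective hqs]
          exact hM.not_ge (h2.le.trans hmapS)
        have h2 := hcc.2 _ h1
        rw [← map_comap_eq_self_of_surjective hqs M, h2, ← MonoidHom.range_eq_map]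
        exact MonoidHom.range_eq_top.2 hqs
    have h1 := commutator_complement_eq_bot (K.map q) hcard hc'
    rw [← map_commutator] at h1
    exact le_iff_map_mk_eq_bot.2 h1
  -- N acts commutatively
  have hNact : ∀ a ∈ K.map f, ∀ b ∈ K.map f, ∀ u ∈ U.map f,
      a * b * u * (a * b)⁻¹ = b * a * u * (b * a)⁻¹ := by
    intro a ha b hb u hu
    have h1 : (b * a)⁻¹ * (a * b) ∈ P.map f := by
      have h2 : ⁅a⁻¹, b⁻¹⁆ ∈ ⁅K.map f, K.map f⁆ := commutator_mem_commutator (inv_mem ha) (inv_mem hb)
      rw [← map_commutator] at h2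
      have h3 := map_mono hKK h2
      rw [commutatorElement_def] at h3
      convert h3 using 1
      group
    have h2 := mem_centralizer_iff.1 (hUPc h1) u hu
    -- u * c = c * u, c = (ba)⁻¹ ab
    have h3 : a * b = b * a * ((b * a)⁻¹ * (a * b)) := by group
    rw [h3]
    set c := (b * a)⁻¹ * (a * b) with hc
    calc b * a * c * u * (b * a * c)⁻¹ = b * a * (c * u) * c⁻¹ * (b * a)⁻¹ := by group
      _ = b * a * (u * c) * c⁻¹ * (b * a)⁻¹ := by rw [h2]
      _ = _ := by group
  -- g has p-power order
  obtain ⟨s, hs⟩ : ∃ s : ℕ, (f g) ^ (p ^ s) = 1 := by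
    obtain ⟨s, hs⟩ := T.isPGroup' ⟨g, hgT⟩
    refine ⟨s, ?_⟩
    rw [← map_pow]
    have : g ^ (p ^ s) = 1 := by simpa using congrArg Subtype.val hs
    rw [this, map_one]
  have hit' : Cfsg.iterCommutator (U.map f) (zpowers (f g)) (p - 1) = ⊥ := by
    rw [← MonoidHom.map_zpowers, ← iterCommutator_map]
    exact le_iff_map_mk_eq_bot.1 hit
  -- m = |K : P|
  set m := P.relIndex K with hm
  have hmcop : m.Coprime p := hcop
  have hpowm : ∀ n ∈ K, n ^ m ∈ P := by
    intro n hn
    have h1 : (⟨n, hn⟩ : K) ^ (P.subgroupOf K).index ∈ P.subgroupOf K := by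
      haveI : (P.subgroupOf K).Normal := hPn.subgroupOf K
      exact Subgroup.pow_index_mem _ _
    exact h1
  -- equality of actions
  have hact : ∀ n ∈ K, ∀ u ∈ U.map f, f n * u * (f n)⁻¹ = f (g * n * g⁻¹) * u * (f (g * n * g⁻¹))⁻¹ := by
    intro n hn u hu
    have hpq := pow_act_eq (p := p) hUb hUc hUe hNact hs hit' (mem_map_of_mem f hn)
    -- relation on elements of K
    obtain ⟨e, he⟩ : ∃ e : ℕ, (p * e) ≡ 1 [MOD m] := by
      rcases Nat.lt_or_ge 1 m with h1 | h1
      · obtain ⟨e, he⟩ := Nat.exists_mul_mod_eq_one_of_coprime hmcop.symm h1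
        refine ⟨e, ?_⟩
        unfold Nat.ModEq
        rw [he.2, Nat.mod_eq_of_lt h1]
      · have h2 : m = 1 := le_antisymm h1 (Nat.pos_of_ne_zero (by rw [hm]; unfold Subgroup.relIndex; exact Subgroup.index_ne_zero_of_finite))
        exact ⟨0, by rw [h2]; exact Nat.modEq_one⟩
    set φ : X ⧸ V →* MulAut (U.map f) := MulAut.conjNormal with hφ
    have hφeq : ∀ a b : X ⧸ V, (∀ u ∈ U.map f, a * u * a⁻¹ = b * u * b⁻¹) → φ a = φ b := by
      intro a b h
      ext v
      have := h v v.2
      simpa [hφ, MulAut.conjNormal_apply] using this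
    have hφP : ∀ c ∈ P.map f, φ c = 1 := by
      intro c hc
      ext v
      have h2 := mem_centralizer_iff.1 (hUPc hc) v v.2
      simp only [hφ, MulAut.conjNormal_apply, MulAut.one_apply]
      rw [← h2]; group
    have h1 : φ (f n ^ p) = φ ((f g * f n * (f g)⁻¹) ^ p) := hφeq _ _ hpq
    have h2 : ∀ n' ∈ K, φ (f n') = (φ (f n' ^ p)) ^ e := by
      intro n' hn'
      have h3 : φ (f n') ^ m = 1 := by
        rw [← map_pow, ← map_pow]
        exact hφP _ (mem_map_of_mem f (hpowm n' hn'))
      have h4 : φ (f n') ^ (p * e) = φ (f n') := by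
        have h5 : orderOf (φ (f n')) ∣ m := orderOf_dvd_of_pow_eq_one h3
        have h6 : p * e ≡ 1 [MOD orderOf (φ (f n'))] := he.of_dvd h5
        rw [← pow_mod_orderOf, h6, pow_mod_orderOf, pow_one]
      rw [map_pow, ← pow_mul, h4]
    have hgn : g * n * g⁻¹ ∈ K := hK.conj_mem n hn g
    have h3 : φ (f n) = φ (f (g * n * g⁻¹)) := by
      rw [h2 n hn, h2 _ hgn, h1, map_mul, map_mul, map_inv]
    have h4 := congrArg (fun a : MulAut (U.map f) => ((a ⟨u, hu⟩ : U.map f) : X ⧸ V)) h3
    simp only [hφ, MulAut.conjNormal_apply] at h4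
    exact h4
  -- the kernel of the action
  set C := relCent U V with hC
  haveI : C.Normal := by rw [hC]; infer_instance
  have hCmem : ∀ x : X, x ∈ C ↔ ∀ u ∈ U.map f, u * f x = f x * u := by
    intro x
    rw [hC]
    unfold relCent
    rw [mem_comap, mem_centralizer_iff]
    rfl
  have hcomC : ∀ n ∈ K, g * n * g⁻¹ * n⁻¹ ∈ C := by
    intro n hn
    rw [hCmem]
    intro u hu
    -- use u' = f n⁻¹ u f n
    have hu' : (f n)⁻¹ * u * f n ∈ U.map f := by
      have := (inferInstance : (U.map f).Normal).conj_mem u hu (f n)⁻¹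
      simpa using this
    have h1 := hact n hn _ hu'
    have h2 : f n * ((f n)⁻¹ * u * f n) * (f n)⁻¹ = u := by group
    rw [h2] at h1
    rw [map_mul, map_inv]
    set y := f (g * n * g⁻¹) with hy
    calc u * (y * (f n)⁻¹) = (y * ((f n)⁻¹ * u * f n) * y⁻¹) * (y * (f n)⁻¹) := by rw [← h1]
      _ = y * (f n)⁻¹ * u := by group
  -- K ∩ T ≤ P
  have hKT : K ⊓ (T : Subgroup X) ≤ P :=
    le_of_relIndex_coprime hcop (T.isPGroup'.to_le inf_le_right) inf_le_left
  have hKtop : K ⊔ (T : Subgroup X) = ⊤ := by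
    rw [← index_eq_one]
    have h1 : (K ⊔ (T : Subgroup X)).index ∣ K.index := index_dvd_of_le le_sup_left
    have h2 : (K ⊔ (T : Subgroup X)).index ∣ (T : Subgroup X).index := index_dvd_of_le le_sup_right
    have h3 : (T : Subgroup X).index.Coprime p :=
      ((Nat.Prime.coprime_iff_not_dvd hp.out).2 T.not_dvd_index).symm
    rw [hk] at h1
    exact Nat.eq_one_of_dvd_coprimes (h3.pow_right k).symm h1 h2
  have hco := hcoat T
  by_cases hKC : K ≤ C
  · -- K acts trivially: T acts on U/V, contradiction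
    have h1 : ⁅U, zpowers g⁆ ≤ V := by
      rcases hmax (⁅U, (⊤ : Subgroup X)⁆ ⊔ V) inferInstance le_sup_right
        (sup_le (commutator_le_left U ⊤) hVU.le) with h2 | h2
      · exact (commutator_mono le_rfl le_top).trans (le_sup_left.trans h2.le)
      · exfalso
        have h3 : U.map f ≤ ⁅U.map f, (T : Subgroup X).map f⁆ := by
          have hUKV : ⁅U, K⁆ ≤ V := le_relCent_iff.1 hKC
          have hUTn : ∀ x : X, ∀ u ∈ U.map f, ⁅u, f x⁆ ∈ ⁅U.map f, (T : Subgroup X).map f⁆ := by
            intro x u hu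
            have hx : x ∈ (T : Subgroup X) ⊔ K := by rw [sup_comm, hKtop]; trivial
            obtain ⟨t, ht, n, hn, rfl⟩ := mem_sup_of_normal_right.1 hx
            have hcn : u * f n = f n * u := (hCmem n).1 (hKC hn) u hu
            have h4 : ⁅u, f (t * n)⁆ = ⁅u, f t⁆ := by
              rw [map_mul, commutatorElement_def, commutatorElement_def]
              calc u * (f t * f n) * u⁻¹ * (f t * f n)⁻¹ = u * f t * (f n * u⁻¹) * (f n)⁻¹ * (f t)⁻¹ := by group
                _ = u * f t * (u⁻¹ * f n) * (f n)⁻¹ * (f t)⁻¹ := by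
                  have : f n * u⁻¹ = u⁻¹ * f n := by
                    rw [eq_inv_mul_iff_mul_eq, ← mul_assoc, hcn, mul_inv_cancel_right]
                  rw [this]
                _ = _ := by group
            rw [h4]
            exact commutator_mem_commutator hu (mem_map_of_mem f ht)
          calc U.map f = (⁅U, ⊤⁆ ⊔ V).map f := by rw [h2]
            _ = (⁅U, (⊤ : Subgroup X)⁆).map f := by
              rw [Subgroup.map_sup, le_iff_map_mk_eq_bot.1 (le_refl V), sup_bot_eq]
            _ = ⁅U.map f, (⊤ : Subgroup X).map f⁆ := map_commutator _ _ _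
            _ ≤ ⁅U.map f, (T : Subgroup X).map f⁆ := by
              rw [commutator_le]
              rintro u hu _ ⟨x, _, rfl⟩
              exact hUTn x u hu
        have h4 := Cfsg.Agent.Transfer.eq_bot_of_le_commutator_of_isNilpotent
          ((T.isPGroup'.map f).isNilpotent) (map_mono (hUP.trans hPT)) h3
        exact hUb h4
    exact hne h1
  · have hKCP : K ⊓ C ≤ P := by
      rcases lt_or_eq_of_le (le_sup_right : (T : Subgroup X) ≤ (K ⊓ C) ⊔ (T : Subgroup X)) with h1 | h1
      · exfalso
        apply hKC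
        have h2 := hco.2 _ h1
        intro n hn
        have hn' : n ∈ (T : Subgroup X) ⊔ (K ⊓ C) := by rw [sup_comm, h2]; trivial
        obtain ⟨t, ht, c, hc, rfl⟩ := mem_sup_of_normal_right.1 hn'
        have htK : t ∈ K := by
          have := K.mul_mem hn (K.inv_mem hc.1)
          simpa using this
        have htC : t ∈ C := by
          have h3 : P ≤ C := le_relCent_iff.2 hUPV
          exact h3 (hKT ⟨htK, ht⟩)
        exact C.mul_mem htC hc.2
      · intro x hx
        exact hKT ⟨hx.1, by rw [h1]; exact mem_sup_left hx⟩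
    -- D
    set D := (T : Subgroup X) ⊓ relCent K P with hD
    have hPKP : ⁅K, P⁆ ≤ P := commutator_le_right K P
    have hPD : P ≤ D := le_inf hPT (le_relCent_iff.2 hPKP)
    have hgD : g ∈ D := by
      refine ⟨hgT, ?_⟩
      have h1 : zpowers g ≤ relCent K P := by
        rw [zpowers_le]
        unfold relCent
        rw [mem_comap, mem_centralizer_iff]
        rintro _ ⟨n, hn, rfl⟩
        have h2 : g * n * g⁻¹ * n⁻¹ ∈ P := hKCP ⟨K.mul_mem (hK.conj_mem n hn g) (K.inv_mem hn), hcomC n hn⟩
        have h3 : QuotientGroup.mk' P (g * n * g⁻¹ * n⁻¹) = 1 := (QuotientGroup.eq_one_iff _).2 h2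
        rw [map_mul, map_mul, map_mul, map_inv, map_inv, mul_inv_eq_one, mul_inv_eq_iff_eq_mul] at h3
        exact h3.symm
      exact h1 (mem_zpowers g)
    have hDn : D.Normal := by
      have hle1 : (T : Subgroup X) ≤ normalizer (D : Set X) := by
        have h1 : (T : Subgroup X) ⊓ ⊤ ≤ normalizer (D : Set X) := by
          intro t ht
          rw [mem_normalizer_iff]
          intro x
          have hn1 : (relCent K P).Normal := inferInstance
          constructor
          · rintro ⟨hx1, hx2⟩
            exact ⟨T.mul_mem (T.mul_mem ht.1 hx1) (T.inv_mem ht.1), hn1.conj_mem x hx2 t⟩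
          · rintro ⟨hx1, hx2⟩
            refine ⟨?_, ?_⟩
            · have := T.mul_mem (T.mul_mem (T.inv_mem ht.1) hx1) ht.1
              have h5 : t⁻¹ * (t * x * t⁻¹) * t = x := by group
              rw [h5] at this
              exact this
            · have := hn1.conj_mem _ hx2 t⁻¹
              simpa [mul_assoc] using this
        simpa using h1
      have hle2 : K ≤ normalizer (D : Set X) := by
        apply le_normalizer_of_commutator_le
        have h1 : ⁅D, K⁆ ≤ P := by
          rw [commutator_comm]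
          exact le_relCent_iff.1 inf_le_right
        exact h1.trans hPD
      rw [← normalizer_eq_top_iff, eq_top_iff, ← hKtop]
      exact sup_le hle2 hle1
    exact hgP (Solv.le_pCore hDn (T.isPGroup'.to_le inf_le_left) hgD)

end Cfsg.Agent.Star.NPCdeg
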