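import Cfsg.Agent.Star.PP
import Cfsg.Agent.BlkF.Nilp
import Cfsg.Agent.Star.NilApp

/-!
# Blocks with minimal sum of squares of degrees are nilpotent
-/

set_option autoImplicit false
set_option linter.unusedSectionVars false
set_option linter.style.haveILetI false

universe u

namespace Cfsg.Agent.Star

open scoped ComplexConjugate Matrix
open MonoidAlgebra Cfsg Cfsg.Agent.Blk Cfsg.Agent.BlkF Cfsg.Agent.CharBase Cfsg.Agent.BlkC

variable {p : ℕ} [hp : Fact p.Prime] {M : Ideal AlgInt} [hMp : M.IsPrime]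
  {G : Type u} [Group G] [Fintype G] [DecidableEq G] {B : Set (IrrCharacter G)}

theorem act_eq_iff {G : Type*} [Group G] {u : G × G} {g h : G} :
    act u g = h ↔ u.1 * g = h * u.2 := by
  rw [act, mul_inv_eq_iff_eq_mul]

theorem card_prod_self {G : Type*} [Group G] (P : Subgroup G) :
    Nat.card (P.prod P) = Nat.card P * Nat.card P := by
  rw [Nat.card_congr (Subgroup.prodEquiv P P).toEquiv, Nat.card_prod]

theorem isPGroup_prod {G : Type*} [Group G] [Finite G] {P : Subgroup G} (hP : IsPGroup p P) :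
    IsPGroup p (P.prod P) := by
  obtain ⟨n, hn⟩ := IsPGroup.iff_card.1 hP
  exact IsPGroup.of_card (n := n + n) (by rw [card_prod_self, hn, pow_add])

theorem br_ne_of_fx {k : Type*} [Field k] {b : MonoidAlgebra k G} {X : Subgroup (G × G)}
    {h h' : G} (hh : h ∈ fx X) (hh' : h' ∈ fx X) (hb : Lreg b h h' ≠ 0) :
    br (X.map (MonoidHom.fst G G)) b ≠ 0 := by
  have h1 : b.coeff (h * h'⁻¹) ≠ 0 := hb
  refine br_ne_zero_of_coeff h1 ?_
  rintro _ ⟨u, hu, rfl⟩
  rw [Subgroup.mem_centralizer_singleton_iff]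
  have e1 := act_eq_iff.1 (hh u hu)
  have e2 := act_eq_iff.1 (hh' u hu)
  change u.1 * (h * h'⁻¹) = h * h'⁻¹ * u.1
  have e3 : h'⁻¹ * u.1 = u.2 * h'⁻¹ := by
    have : u.1 = h' * u.2 * h'⁻¹ := by rw [← e2]; group
    rw [this]; group
  rw [← mul_assoc, e1, mul_assoc h h'⁻¹ u.1, e3, mul_assoc]

theorem card_stb_le {k : Type*} [Field k] [CharP k p] {b : MonoidAlgebra k G}
    (hb : IsBlk ⊤ b) {D : Subgroup G} (hD : IsDef p ⊤ b D) {P : Subgroup G} (hP : IsPGroup p P)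
    {z : G} {c : Matrix G G k} (hc : c ∈ IA k (P.prod P)) (hbc : Lreg b * c = c)
    {x y : Matrix G G k} (hx : x ∈ IA k (P.prod P)) (hy : y ∈ IA k (P.prod P))
    (hxy : x * y = c) (hyx : y * x = eps k (P.prod P) z) :
    Nat.card (stb (P.prod P) z) ≤ Nat.card D := by
  classical
  obtain ⟨X, hX⟩ : ∃ X, X = stb (P.prod P) z := ⟨_, rfl⟩
  have hXU : X ≤ P.prod P := by rw [hX]; exact fun u hu => hu.1
  have hmono : ∀ {E : Matrix G G k}, E ∈ IA k (P.prod P) → E ∈ IA k X := fun hE u hu =>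
    hE u (hXU hu)
  have hXp : IsPGroup p X := (isPGroup_prod hP).to_le hXU
  have hzX : z ∈ fx X := fun u hu => by rw [hX] at hu; exact hu.2
  -- the card
  have hcard : Nat.card X = Nat.card (X.map (MonoidHom.fst G G)) := by
    refine Nat.card_congr (Equiv.ofBijective
      (fun u : X => (⟨(u : G × G).1, ⟨u, u.2, rfl⟩⟩ : X.map (MonoidHom.fst G G))) ⟨?_, ?_⟩)
    · rintro ⟨u, hu⟩ ⟨v, hv⟩ h
      have h1 : u.1 = v.1 := congrArg Subtype.val h
      have h2 := act_eq_iff.1 (hzX u hu)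
      have h3 := act_eq_iff.1 (hzX v hv)
      rw [h1, h3] at h2
      exact Subtype.ext (Prod.ext h1 (mul_left_cancel h2).symm)
    · rintro ⟨_, ⟨u, hu, rfl⟩⟩
      exact ⟨⟨u, hu⟩, rfl⟩
  -- `c` does not vanish on the fixed points
  obtain ⟨l, hl, l', hl', hcl⟩ : ∃ l ∈ fx X, ∃ l' ∈ fx X, c l l' ≠ 0 := by
    by_contra hcon
    push Not at hcon
    have h1 := eqv_res hXp (b := eps k (P.prod P) z) (ε := c) (hmono hy) (hmono hx) (hmono hc)
      hyx hxy (eps_idem _ _) hcon z hzX z hzX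
    rw [eps_self] at h1
    exact one_ne_zero h1
  obtain ⟨h, hh, h', hh', hbl⟩ : ∃ l ∈ fx X, ∃ l' ∈ fx X, Lreg b l l' ≠ 0 := by
    by_contra hcon
    push Not at hcon
    apply hcl
    rw [← hbc, mul_res hXp (Lreg_mem hb.fixed) (hmono hc) hl hl']
    refine Finset.sum_eq_zero fun m hm => ?_
    rw [hcon l hl m (Finset.mem_filter.1 hm).2, zero_mul]
  have hbr := br_ne_of_fx hh hh' hbl
  obtain ⟨u, -, hu⟩ := hD.le_of_br_ne le_top (hXp.map _) hbr
  rw [← hX, hcard]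
  have h1 := Subgroup.card_le_of_le hu
  rwa [card_map_conj] at h1

/-- `b kG` is a transitive permutation module -/
theorem exists_eqv_eps (hM : IsPModular p M) (hB : IsPBlock M B) {D : Subgroup G}
    (hD : IsDef p ⊤ (eB M B) D) {P : Subgroup G} (hP : IsPGroup p P) {a d : ℕ}
    (ha : Nat.card P = p ^ a) (hd : Nat.card D = p ^ d)
    (hmin : ∑ χ ∈ Bfin B, charDegree (χ : G → ℂ) ^ 2 = p ^ (2 * a - d)) (hda : d ≤ a) :
    ∃ z : G, Nat.card (stb (P.prod P) z) ≤ Nat.card D ∧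
      ∃ x ∈ IA (kM M) (P.prod P), ∃ y ∈ IA (kM M) (P.prod P),
        x * y = Lreg (eB M B) ∧ y * x = eps (kM M) (P.prod P) z := by
  classical
  have := charP_kM hM
  obtain ⟨U, hU⟩ : ∃ U, U = P.prod P := ⟨_, rfl⟩
  have hUp : IsPGroup p U := by rw [hU]; exact isPGroup_prod hP
  have hbb : Lreg (eB M B) * Lreg (eB M B) = Lreg (eB M B) := by
    rw [← Lreg_mul, eB_idem hB]
  have hb0 : (⟨Lreg (eB M B), Lreg_mem (fixed_eB B)⟩ : IA (kM M) U) ≠ 0 := by
    intro h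
    have h1 : Lreg (eB M B) = 0 := congrArg Subtype.val h
    apply (isBlk_eB hB).ne_zero
    apply ga_ext; intro g
    have h2 := congrFun (congrFun h1 g) 1
    change (eB M B).coeff (g * 1⁻¹) = 0 at h2
    rwa [inv_one, mul_one] at h2
  obtain ⟨c, hc, h1, h2⟩ := exists_prim_le (kM M)
    (e := (⟨Lreg (eB M B), Lreg_mem (fixed_eB B)⟩ : IA (kM M) U)) (Subtype.ext hbb) hb0
  obtain ⟨z, x, y, h3, h4, -, -, -, -⟩ := exists_eps_eqv hUp hc
  have h1' : Lreg (eB M B) * (c : Matrix G G (kM M)) = c := congrArg Subtype.val h1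
  have h2' : (c : Matrix G G (kM M)) * Lreg (eB M B) = c := congrArg Subtype.val h2
  have h3' : (x : Matrix G G (kM M)) * y = c := congrArg Subtype.val h3
  have h4' : (y : Matrix G G (kM M)) * x = eps (kM M) U z := congrArg Subtype.val h4
  have hcc' : (c : Matrix G G (kM M)) * c = c := congrArg Subtype.val hc.idem
  have hst : Nat.card (stb U z) ≤ Nat.card D := by
    have h5 := hU
    subst h5
    exact card_stb_le (isBlk_eB hB) hD hP c.2 h1' x.2 y.2 h3' h4'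
  have hrank : (Lreg (eB M B)).rank ≤ (c : Matrix G G (kM M)).rank := by
    rw [rank_Lreg hB, hmin, rank_eqv h3' h4' hcc' (eps_idem _ _), rank_eps]
    have h5 := card_orb U z
    have h6 : Nat.card U = p ^ (2 * a - d) * p ^ d := by
      rw [hU, card_prod_self, ha, ← pow_add, ← pow_add]
      congr 1; omega
    rw [h6] at h5
    rw [hd] at hst
    have hpd : 0 < p ^ d := pow_pos hp.out.pos d
    by_contra hcon
    push Not at hcon
    have h7 : Nat.card {g : G // ∃ u ∈ U, act u z = g} * Nat.card (stb U z) <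
        p ^ (2 * a - d) * p ^ d := by
      calc _ ≤ Nat.card {g : G // ∃ u ∈ U, act u z = g} * p ^ d := Nat.mul_le_mul_left _ hst
        _ < _ := Nat.mul_lt_mul_of_pos_right hcon hpd
    omega
  have hcb := eq_of_rank_le h1' h2' hcc' hrank
  rw [hcb] at h3'
  subst hU
  exact ⟨z, hst, x, x.2, y, y.2, h3', h4'⟩

/-- fixed points of twisted diagonals in the orbit -/
theorem exists_fx {k : Type*} [Field k] [CharP k p] {b : MonoidAlgebra k G} (hb : IsBlk ⊤ b)
    {P : Subgroup G} {z : G} {x y : Matrix G G k}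
    (hx : x ∈ IA k (P.prod P)) (hy : y ∈ IA k (P.prod P))
    (hxy : x * y = Lreg b) (hyx : y * x = eps k (P.prod P) z) {Q : Subgroup G}
    (hQp : IsPGroup p Q) (hQP : Q ≤ P) (hbr : br Q b ≠ 0) {g : G}
    (hg : ∀ q ∈ Q, g * q * g⁻¹ ∈ P) :
    ∃ s ∈ P, ∃ t ∈ P, ∀ q ∈ Q, g * q * g⁻¹ * (s * z * t) = (s * z * t) * q := by
  classical
  obtain ⟨φ, hφ⟩ : ∃ φ : G →* G × G, ∀ q, φ q = (g * q * g⁻¹, q) :=
    ⟨MonoidHom.prod (MulAut.conj g).toMonoidHom (MonoidHom.id G), fun q => rfl⟩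
  obtain ⟨X, hX⟩ : ∃ X, X = Q.map φ := ⟨_, rfl⟩
  have hXU : X ≤ P.prod P := by
    rw [hX]
    rintro _ ⟨q, hq, rfl⟩
    rw [hφ]
    exact ⟨hg q hq, hQP hq⟩
  have hXp : IsPGroup p X := by rw [hX]; exact hQp.map _
  have hmono : ∀ {E : Matrix G G k}, E ∈ IA k (P.prod P) → E ∈ IA k X := fun hE u hu =>
    hE u (hXU hu)
  have hfx : ∀ h, h ∈ fx X ↔ ∀ q ∈ Q, g * q * g⁻¹ * h = h * q := by
    intro h
    constructor
    · intro hh q hq
      have := act_eq_iff.1 (hh (φ q) (by rw [hX]; exact ⟨q, hq, rfl⟩))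
      rw [hφ] at this
      exact this
    · intro hh u hu
      rw [hX] at hu
      obtain ⟨q, hq, rfl⟩ := hu
      rw [act_eq_iff, hφ]
      exact hh q hq
  obtain ⟨c, hc, hcC⟩ := exists_coeff_of_br_ne_zero hbr
  rw [Subgroup.mem_centralizer_iff] at hcC
  have hg1 : g ∈ fx X := by
    rw [hfx]; intro q _; group
  have hg2 : g * c ∈ fx X := by
    rw [hfx]
    intro q hq
    calc g * q * g⁻¹ * (g * c) = g * (q * c) := by group
      _ = g * c * q := by rw [hcC q hq]; group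
  obtain ⟨l, hl, l', hl', hne⟩ : ∃ l ∈ fx X, ∃ l' ∈ fx X, eps k (P.prod P) z l l' ≠ 0 := by
    by_contra hcon
    push Not at hcon
    have h1 := eqv_res hXp (b := Lreg b) (ε := eps k (P.prod P) z) (hmono hx) (hmono hy)
      (hmono (eps_mem _ _)) hxy hyx (by rw [← Lreg_mul, hb.idem]) hcon _ hg2 _ hg1
    apply hc
    change b.coeff (g * c * g⁻¹) = 0 at h1
    rwa [hb.fixed.coeff_conj (Subgroup.mem_top g)] at h1
  have hll : l = l' := by
    by_contra h
    apply hne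
    rw [eps, Matrix.diagonal_apply_ne _ h]
  subst hll
  rw [eps, Matrix.diagonal_apply_eq] at hne
  obtain ⟨u, hu, hul⟩ : ∃ u ∈ P.prod P, act u z = l := by
    by_contra h
    rw [if_neg h] at hne
    exact hne rfl
  refine ⟨u.1, hu.1, u.2⁻¹, P.inv_mem hu.2, ?_⟩
  have h1 := (hfx l).1 hl
  rw [← hul] at h1
  exact h1

theorem nilp_of_min (hM : IsPModular p M) (hB : IsPBlock M B) {D : Subgroup G}
    (hD : IsDef p ⊤ (eB M B) D) {P : Subgroup G} (hP : IsPGroup p P) {a d : ℕ}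
    (ha : Nat.card P = p ^ a) (hd : Nat.card D = p ^ d) (hDP : D ≤ P)
    (hmin : ∑ χ ∈ Bfin B, charDegree (χ : G → ℂ) ^ 2 = p ^ (2 * a - d)) (hda : d ≤ a)
    {Q : Subgroup G} (hQp : IsPGroup p Q) (hQP : Q ≤ P) (hbr : br Q (eB M B) ≠ 0) {x : G}
    (hx : x ∈ Subgroup.normalizer (Q : Set G)) (hxp : ¬ p ∣ orderOf x) :
    x ∈ Subgroup.centralizer (Q : Set G) := by
  classical
  have := charP_kM hM
  obtain ⟨z₀, hz₀, X, hX, Y, hY, hXY, hYX⟩ := exists_eqv_eps hM hB hD hP ha hd hmin hda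
  have hb := isBlk_eB hB
  -- move `z`
  obtain ⟨s₀, hs₀, t₀, ht₀, h0⟩ := exists_fx hb hX hY hXY hYX hD.isPGroup hDP hD.br_ne
    (g := 1) (fun q hq => by simpa using hDP hq)
  obtain ⟨z, hz⟩ : ∃ z, z = s₀ * z₀ * t₀ := ⟨_, rfl⟩
  have hzo : ∃ u ∈ P.prod P, act u z₀ = z :=
    ⟨(s₀, t₀⁻¹), ⟨hs₀, P.inv_mem ht₀⟩, by rw [hz, act, inv_inv]⟩
  have heps := eps_eq_of_mem (k := kM M) hzo
  have hzD : ∀ q ∈ D, q * z = z * q := by
    intro q hq
    have := h0 q hq
    rw [← hz] at this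
    simpa using this
  -- the stabilizer
  have hstz : Nat.card (stb (P.prod P) z) ≤ Nat.card D := by
    have e1 := card_orb (P.prod P) z₀
    have e2 := card_orb (P.prod P) z
    have e3 := rank_eps (k := kM M) (P.prod P) z₀
    have e4 := rank_eps (k := kM M) (P.prod P) z
    rw [heps, e4] at e3
    rw [← e1, e3] at e2
    have hpos : 0 < Nat.card {g : G // ∃ u ∈ P.prod P, act u z₀ = g} := by
      have : Nonempty {g : G // ∃ u ∈ P.prod P, act u z₀ = g} := ⟨⟨z, hzo⟩⟩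
      exact Nat.card_pos
    rwa [Nat.eq_of_mul_eq_mul_left hpos e2]
  have hdiag : ∀ u ∈ stb (P.prod P) z, u.1 = u.2 := by
    obtain ⟨Δ, hΔ⟩ : ∃ Δ : Subgroup (G × G),
        Δ = D.map (MonoidHom.prod (MonoidHom.id G) (MonoidHom.id G)) := ⟨_, rfl⟩
    have h1 : Δ ≤ stb (P.prod P) z := by
      rw [hΔ]
      rintro _ ⟨q, hq, rfl⟩
      refine ⟨⟨hDP hq, hDP hq⟩, ?_⟩
      rw [act_eq_iff]
      exact hzD q hq
    have h2 : Nat.card Δ = Nat.card D := by
      rw [hΔ]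
      exact Subgroup.card_map_of_injective fun x y h => congrArg Prod.fst h
    have h3 : Δ = stb (P.prod P) z := Subgroup.eq_of_le_of_card_ge h1 (by rw [h2]; exact hstz)
    intro u hu
    rw [← h3, hΔ] at hu
    obtain ⟨q, -, rfl⟩ := hu
    rfl
  -- the element `x`
  rw [heps] at hYX
  obtain ⟨s, hs, t, ht, h1⟩ := exists_fx hb hX hY hXY hYX hQp hQP hbr (g := x)
    (fun q hq => hQP ((Subgroup.mem_normalizer_iff.1 hx q).1 hq))
  refine mem_centralizer_of_inner hP hx hxp (h := s * t) (P.mul_mem hs ht) fun q hq => ?_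
  have hxq : x * q * x⁻¹ ∈ P := hQP ((Subgroup.mem_normalizer_iff.1 hx q).1 hq)
  have h2 : (s⁻¹ * (x * q * x⁻¹) * s, t * q * t⁻¹) ∈ stb (P.prod P) z := by
    refine ⟨⟨P.mul_mem (P.mul_mem (P.inv_mem hs) hxq) hs,
      P.mul_mem (P.mul_mem ht (hQP hq)) (P.inv_mem ht)⟩, ?_⟩
    rw [act_eq_iff]
    have h3 := h1 q hq
    calc s⁻¹ * (x * q * x⁻¹) * s * z = s⁻¹ * (x * q * x⁻¹ * (s * z * t)) * t⁻¹ := by group
      _ = z * (t * q * t⁻¹) := by rw [h3]; group
  have h3 : s⁻¹ * (x * q * x⁻¹) * s = t * q * t⁻¹ := hdiag _ h2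
  calc x * q * x⁻¹ = s * (s⁻¹ * (x * q * x⁻¹) * s) * s⁻¹ := by group
    _ = s * t * q * (s * t)⁻¹ := by rw [h3]; group

end Cfsg.Agent.Star
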