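import Cfsg.Agent.Star.OT3

/-!
# `kG` as a `k[P × P]`-module
-/

set_option autoImplicit false
set_option linter.unusedSectionVars false
set_option linter.style.haveILetI false

universe u

namespace Cfsg.Agent.Star

open scoped ComplexConjugate Matrix
open MonoidAlgebra Cfsg Cfsg.Agent.Blk Cfsg.Agent.CharBase Cfsg.Agent.BlkC

section prim

theorem exists_prim_le (k : Type*) [Field k] {A : Type*} [Ring A] [Algebra k A] [Module.Finite k A]
    {e : A} (he : e * e = e) (h0 : e ≠ 0) : ∃ c, Prim c ∧ e * c = c ∧ c * e = c := by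
  refine idem_induction k (fun e => e ≠ 0 → ∃ c, Prim c ∧ e * c = c ∧ c * e = c) ?_ ?_ ?_ e he h0
  · intro h; exact absurd rfl h
  · intro e he _; exact ⟨e, he, he.idem, he.idem⟩
  · intro e f he hf hef hfe ihe ihf hne
    by_cases h1 : e = 0
    · have h2 : f ≠ 0 := by
        intro h2; apply hne; rw [h1, h2, add_zero]
      obtain ⟨c, hc, h3, h4⟩ := ihf h2
      exact ⟨c, hc, by rw [h1, zero_add, h3], by rw [h1, zero_add, h4]⟩
    · obtain ⟨c, hc, h3, h4⟩ := ihe h1
      refine ⟨c, hc, ?_, ?_⟩
      · rw [add_mul, h3]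
        have : f * c = 0 := by rw [← h3, ← mul_assoc, hfe, zero_mul]
        rw [this, add_zero]
      · rw [mul_add, h4]
        have : c * f = 0 := by rw [← h4, mul_assoc, hef, mul_zero]
        rw [this, add_zero]

end prim

section inv

variable {G : Type u} [Group G]

/-- two-sided action -/
def act (u : G × G) (g : G) : G := u.1 * g * u.2⁻¹

theorem act_one (g : G) : act (1 : G × G) g = g := by simp [act]

theorem act_mul (u v : G × G) (g : G) : act (u * v) g = act u (act v g) := by
  simp only [act, Prod.fst_mul, Prod.snd_mul]; group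

/-- the action of `G × G` on `G` -/
@[reducible] def actM (G : Type u) [Group G] : MulAction (G × G) G where
  smul := act
  one_smul := act_one
  mul_smul := act_mul

/-- the action as a permutation -/
def actE (u : G × G) : G ≃ G where
  toFun := act u
  invFun := act u⁻¹
  left_inv g := by rw [← act_mul, inv_mul_cancel, act_one]
  right_inv g := by rw [← act_mul, mul_inv_cancel, act_one]

variable {k : Type*} [Field k] [Fintype G] [DecidableEq G]

/-- matrices invariant under `U` -/
def IA (k : Type*) [Field k] (U : Subgroup (G × G)) : Subalgebra k (Matrix G G k) where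
  carrier := {E | ∀ u ∈ U, ∀ g h, E (act u g) (act u h) = E g h}
  mul_mem' := by
    intro E F hE hF u hu g h
    rw [Matrix.mul_apply, Matrix.mul_apply, ← Equiv.sum_comp (actE u)]
    refine Finset.sum_congr rfl fun l _ => ?_
    change E (act u g) (act u l) * F (act u l) (act u h) = _
    rw [hE u hu, hF u hu]
  add_mem' := by
    intro E F hE hF u hu g h
    rw [Matrix.add_apply, Matrix.add_apply, hE u hu, hF u hu]
  algebraMap_mem' := by
    intro c u hu g h
    rw [Matrix.algebraMap_matrix_apply, Matrix.algebraMap_matrix_apply]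
    congr 1
    exact propext (actE u).injective.eq_iff

theorem mem_IA {U : Subgroup (G × G)} {E : Matrix G G k} :
    E ∈ IA k U ↔ ∀ u ∈ U, ∀ g h, E (act u g) (act u h) = E g h := Iff.rfl

/-- the fixed points -/
def fx (X : Subgroup (G × G)) : Set G := {g | ∀ u ∈ X, act u g = g}

open Classical in
theorem mul_res {p : ℕ} [Fact p.Prime] [CharP k p] {X : Subgroup (G × G)} (hX : IsPGroup p X)
    {E F : Matrix G G k} (hE : E ∈ IA k X) (hF : F ∈ IA k X) {h h' : G} (hh : h ∈ fx X)
    (hh' : h' ∈ fx X) : (E * F) h h' =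
      ∑ l ∈ Finset.univ.filter (fun l : G => l ∈ fx X), E h l * F l h' := by
  rw [Matrix.mul_apply]
  let _ := actM G
  have h1 := sum_eq_sum_fixed (k := k) hX (X := G) (fun l => E h l * F l h') (by
    intro u l
    have e1 : E h (u • l) = E h l := by
      have := hE u u.2 h l
      rwa [hh u u.2] at this
    have e2 : F (u • l) h' = F l h' := by
      have := hF u u.2 l h'
      rwa [hh' u u.2] at this
    rw [e1, e2])
  rw [h1]
  refine Finset.sum_congr ?_ fun _ _ => rfl
  ext l
  simp only [Finset.mem_filter, Finset.mem_univ, true_and]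
  exact ⟨fun h u hu => h ⟨u, hu⟩, fun h u => h u u.2⟩

/-- equivalent idempotents vanish on the same fixed point sets -/
theorem eqv_res {p : ℕ} [Fact p.Prime] [CharP k p] {X : Subgroup (G × G)} (hX : IsPGroup p X)
    {b ε : Matrix G G k} {a c : Matrix G G k} (ha : a ∈ IA k X) (hc : c ∈ IA k X)
    (hε : ε ∈ IA k X) (hac : a * c = b) (hca : c * a = ε) (hbb : b * b = b)
    (h0 : ∀ l ∈ fx X, ∀ l' ∈ fx X, ε l l' = 0) :
    ∀ h ∈ fx X, ∀ h' ∈ fx X, b h h' = 0 := by
  classical
  intro h hh h' hh'
  have h1 : b = a * (ε * c) := by rw [← hca, mul_assoc, hac, ← mul_assoc, hac, hbb]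
  rw [h1, mul_res hX ha (mul_mem hε hc) hh hh']
  refine Finset.sum_eq_zero fun l hl => ?_
  have hl' := (Finset.mem_filter.1 hl).2
  rw [mul_res hX hε hc hl' hh', Finset.sum_eq_zero, mul_zero]
  intro m hm
  rw [h0 l hl' m (Finset.mem_filter.1 hm).2, zero_mul]

theorem exists_inv_vec {p : ℕ} [Fact p.Prime] [CharP k p] {U : Subgroup (G × G)}
    (hU : IsPGroup p U) {F : Matrix G G k} (hF : F ∈ IA k U) (hFF : F * F = F) (h0 : F ≠ 0) :
    ∃ v : G → k, v ≠ 0 ∧ F *ᵥ v = v ∧ ∀ u ∈ U, ∀ g, v (act u g) = v g := by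
  classical
  let _ : DistribMulAction U (G → k) :=
    { smul := fun u v => fun g => v (act (u : G × G)⁻¹ g)
      one_smul := fun v => by
        funext g
        change v (act ((1 : U) : G × G)⁻¹ g) = v g
        rw [Subgroup.coe_one, inv_one, act_one]
      mul_smul := fun u w v => by
        funext g
        change v (act ((u * w : U) : G × G)⁻¹ g) = v (act (w : G × G)⁻¹ (act (u : G × G)⁻¹ g))
        rw [Subgroup.coe_mul, mul_inv_rev, act_mul]
      smul_zero := fun u => rfl
      smul_add := fun u x y => rfl }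
  have hsmul : ∀ (u : U) (v : G → k) (g : G), (u • v) g = v (act (u : G × G)⁻¹ g) :=
    fun _ _ _ => rfl
  obtain ⟨j, hj⟩ : ∃ j, (fun g => F g j) ≠ 0 := by
    by_contra hcon
    push Not at hcon
    apply h0
    ext g j
    exact congrFun (hcon j) g
  obtain ⟨w, hw, hw0, hwfix⟩ := exists_fixed_in_closure (p := p) (V := G → k) (by
    intro v
    rw [← Nat.cast_smul_eq_nsmul k, CharP.cast_eq_zero k p, zero_smul]) hU hj
  have hinv : ∀ (u : U) (v : G → k), F *ᵥ v = v → F *ᵥ (u • v) = u • v := by
    intro u v hv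
    funext g
    rw [hsmul, ← hv]
    rw [Matrix.mulVec, Matrix.mulVec, dotProduct, dotProduct, ← Equiv.sum_comp (actE (u : G × G))]
    refine Finset.sum_congr rfl fun l _ => ?_
    have e1 : (actE (u : G × G)) l = act (u : G × G) l := rfl
    have e2 : act (u : G × G)⁻¹ (act (u : G × G) l) = l := by
      rw [← act_mul, inv_mul_cancel, act_one]
    have e3 : F g (act (u : G × G) l) = F (act (u : G × G)⁻¹ g) l := by
      have := hF (u : G × G) u.2 (act (u : G × G)⁻¹ g) l
      rwa [← act_mul, mul_inv_cancel, act_one] at this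
    rw [e1, hsmul, e2, e3, hv]
  refine ⟨w, hw0, ?_, ?_⟩
  · clear hw0 hwfix
    induction hw using AddSubgroup.closure_induction with
    | mem x hx =>
      obtain ⟨u, rfl⟩ := hx
      refine hinv u _ ?_
      funext g
      have := congrFun (congrFun hFF g) j
      rw [Matrix.mul_apply] at this
      exact this
    | zero => rw [Matrix.mulVec_zero]
    | add x y _ _ hx hy => rw [Matrix.mulVec_add, hx, hy]
    | neg x _ hx => rw [Matrix.mulVec_neg, hx]
  · intro u hu g
    have h1 := congrFun (hwfix ⟨u, hu⟩⁻¹) g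
    rw [hsmul] at h1
    simpa using h1

open Classical in
/-- the projection to an orbit -/
noncomputable def eps (k : Type*) [Field k] (U : Subgroup (G × G)) (z : G) : Matrix G G k :=
  Matrix.diagonal fun g => if ∃ u ∈ U, act u z = g then 1 else 0

theorem orb_act {U : Subgroup (G × G)} {u : G × G} (hu : u ∈ U) (z g : G) :
    (∃ v ∈ U, act v z = act u g) ↔ ∃ v ∈ U, act v z = g := by
  constructor
  · rintro ⟨v, hv, h⟩
    refine ⟨u⁻¹ * v, U.mul_mem (U.inv_mem hu) hv, ?_⟩
    rw [act_mul, h, ← act_mul, inv_mul_cancel, act_one]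
  · rintro ⟨v, hv, h⟩
    exact ⟨u * v, U.mul_mem hu hv, by rw [act_mul, h]⟩

theorem eps_mem (U : Subgroup (G × G)) (z : G) : eps k U z ∈ IA k U := by
  classical
  intro u hu g h
  rw [eps, Matrix.diagonal_apply, Matrix.diagonal_apply]
  have h1 : (act u g = act u h) ↔ g = h := (actE u).injective.eq_iff
  simp only [h1, orb_act hu]

theorem eps_idem (U : Subgroup (G × G)) (z : G) : eps k U z * eps k U z = eps k U z := by
  classical
  rw [eps, Matrix.diagonal_mul_diagonal]
  congr 1
  funext g
  split_ifs <;> simp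

theorem eps_self (U : Subgroup (G × G)) (z : G) : eps k U z z z = 1 := by
  classical
  rw [eps, Matrix.diagonal_apply_eq, if_pos ⟨1, U.one_mem, act_one z⟩]

theorem eps_eq_of_mem {U : Subgroup (G × G)} {z g : G} (h : ∃ u ∈ U, act u z = g) :
    eps k U z = eps k U g := by
  classical
  obtain ⟨u, hu, rfl⟩ := h
  unfold eps
  congr 1
  funext l
  congr 1
  apply propext
  constructor
  · rintro ⟨v, hv, rfl⟩
    exact ⟨v * u⁻¹, U.mul_mem hv (U.inv_mem hu), by rw [← act_mul]; simp⟩
  · rintro ⟨v, hv, rfl⟩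
    exact ⟨v * u, U.mul_mem hv hu, by rw [act_mul]⟩

open Classical in
theorem prim_eps {p : ℕ} [Fact p.Prime] [CharP k p] {U : Subgroup (G × G)}
    (hU : IsPGroup p U) (z : G) : Prim (⟨eps k U z, eps_mem U z⟩ : IA k U) where
  idem := Subtype.ext (eps_idem U z)
  ne_zero := by
    intro h
    have h1 := congrFun (congrFun (congrArg Subtype.val h) z) z
    simp only [eps_self] at h1
    exact one_ne_zero h1
  prim := by
    -- the indicator of the orbit
    obtain ⟨w, hw⟩ : ∃ w : G → k, ∀ g, w g = if ∃ u ∈ U, act u z = g then 1 else 0 :=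
      ⟨_, fun _ => rfl⟩
    have hwz : w z = 1 := by rw [hw, if_pos ⟨1, U.one_mem, act_one z⟩]
    have hεw : eps k U z *ᵥ w = w := by
      funext g
      rw [eps, Matrix.mulVec_diagonal, hw]
      split_ifs <;> simp
    have key : ∀ F : Matrix G G k, F ∈ IA k U → F * F = F → eps k U z * F = F → F ≠ 0 →
        F *ᵥ w = w := by
      intro F hF hFF hεF hF0
      obtain ⟨v, hv0, hv1, hv2⟩ := exists_inv_vec hU hF hFF hF0
      have hv3 : eps k U z *ᵥ v = v := by
        rw [← hv1, Matrix.mulVec_mulVec, hεF]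
      have hv4 : v = v z • w := by
        funext g
        rw [Pi.smul_apply, smul_eq_mul, hw]
        split_ifs with h
        · obtain ⟨u, hu, rfl⟩ := h
          rw [hv2 u hu, mul_one]
        · rw [← hv3, eps, Matrix.mulVec_diagonal, if_neg h]; simp
      have hvz : v z ≠ 0 := by
        intro h
        apply hv0
        rw [hv4, h, zero_smul]
      rw [hv4, Matrix.mulVec_smul] at hv1
      have h2 : v z • (F *ᵥ w - w) = 0 := by rw [smul_sub, hv1, sub_self]
      rcases smul_eq_zero.1 h2 with h3 | h3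
      · exact absurd h3 hvz
      · exact sub_eq_zero.1 h3
    rintro ⟨F, hF⟩ hFF hεF hFε
    have hFF' : F * F = F := congrArg Subtype.val hFF
    have hεF' : eps k U z * F = F := congrArg Subtype.val hεF
    have hFε' : F * eps k U z = F := congrArg Subtype.val hFε
    by_cases h0 : F = 0
    · left; exact Subtype.ext h0
    · right
      by_contra hne
      have h1 := key F hF hFF' hεF' h0
      have h2 : eps k U z - F ≠ 0 := by
        intro h
        exact hne (Subtype.ext (sub_eq_zero.1 h).symm)
      have h3 := key (eps k U z - F) ((IA k U).sub_mem (eps_mem U z) hF) (by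
        rw [sub_mul, mul_sub, mul_sub, eps_idem, hFF', hεF', hFε']; abel) (by
        rw [mul_sub, eps_idem, hεF']) h2
      rw [Matrix.sub_mulVec, hεw, h1, sub_self] at h3
      have h4 := congrFun h3 z
      rw [hwz] at h4
      exact zero_ne_one h4

open Classical in
theorem exists_eps_eqv {p : ℕ} [Fact p.Prime] [CharP k p] {U : Subgroup (G × G)}
    (hU : IsPGroup p U) {c : IA k U} (hc : Prim c) :
    ∃ z : G, Eqv c (⟨eps k U z, eps_mem U z⟩ : IA k U) := by
  have hfin : Module.Finite k (IA k U) := inferInstance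
  let s : Finset (IA k U) := Finset.univ.image fun z : G => (⟨eps k U z, eps_mem U z⟩ : IA k U)
  have hs : ∑ x ∈ s, x = 1 := by
    apply Subtype.ext
    rw [AddSubmonoidClass.coe_finsetSum]
    ext g h
    rw [Matrix.sum_apply]
    by_cases hgh : g = h
    · subst hgh
      rw [Finset.sum_eq_single (⟨eps k U g, eps_mem U g⟩ : IA k U)]
      · change eps k U g g g = (1 : Matrix G G k) g g
        rw [eps_self, Matrix.one_apply_eq]
      · intro x hx hne
        obtain ⟨z, -, rfl⟩ := Finset.mem_image.1 hx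
        change eps k U z g g = 0
        rw [eps, Matrix.diagonal_apply_eq, if_neg]
        intro h
        exact hne (Subtype.ext (eps_eq_of_mem h))
      · intro h
        exact absurd (Finset.mem_image.2 ⟨g, Finset.mem_univ _, rfl⟩) h
    · have h1 : ((1 : IA k U) : Matrix G G k) g h = 0 := by
        change (1 : Matrix G G k) g h = 0
        rw [Matrix.one_apply_ne hgh]
      rw [h1]
      refine Finset.sum_eq_zero fun x hx => ?_
      obtain ⟨z, -, rfl⟩ := Finset.mem_image.1 hx
      change eps k U z g h = 0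
      rw [eps, Matrix.diagonal_apply_ne _ hgh]
  obtain ⟨d, hd, hcd⟩ := exists_eqv_mem k hc (l := s.toList) (by
    intro d hd
    obtain ⟨z, -, rfl⟩ := Finset.mem_image.1 (Finset.mem_toList.1 hd)
    exact prim_eps hU z) (by rw [Finset.sum_toList]; exact hs)
  obtain ⟨z, -, rfl⟩ := Finset.mem_image.1 (Finset.mem_toList.1 hd)
  exact ⟨z, hcd⟩

theorem rank_eps (U : Subgroup (G × G)) (z : G) :
    (eps k U z).rank = Nat.card {g : G // ∃ u ∈ U, act u z = g} := by
  classical
  rw [eps, Matrix.rank_diagonal, Nat.card_eq_fintype_card]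
  refine Fintype.card_congr (Equiv.subtypeEquivRight fun g => ?_)
  constructor
  · intro h
    by_contra h'
    rw [if_neg h'] at h
    exact h rfl
  · intro h
    rw [if_pos h]
    exact one_ne_zero

/-- stabilizers -/
def stb (U : Subgroup (G × G)) (z : G) : Subgroup (G × G) where
  carrier := {u | u ∈ U ∧ act u z = z}
  one_mem' := ⟨U.one_mem, act_one z⟩
  mul_mem' := fun hu hv => ⟨U.mul_mem hu.1 hv.1, by rw [act_mul, hv.2, hu.2]⟩
  inv_mem' := by
    rintro u ⟨h1, h2⟩
    refine ⟨U.inv_mem h1, ?_⟩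
    nth_rewrite 1 [← h2]
    rw [← act_mul, inv_mul_cancel, act_one]

theorem mem_stb {U : Subgroup (G × G)} {z : G} {u : G × G} :
    u ∈ stb U z ↔ u ∈ U ∧ act u z = z := Iff.rfl

theorem card_orb (U : Subgroup (G × G)) (z : G) :
    Nat.card {g : G // ∃ u ∈ U, act u z = g} * Nat.card (stb U z) = Nat.card U := by
  classical
  let _ := actM G
  let _ : MulAction U G := MulAction.compHom G U.subtype
  have hs : ∀ (u : U) (g : G), u • g = act (u : G × G) g := fun _ _ => rfl
  have h1 := MulAction.index_stabilizer U z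
  have h2 := Subgroup.index_mul_card (MulAction.stabilizer U z)
  have e1 : Nat.card {g : G // ∃ u ∈ U, act u z = g} = (MulAction.orbit U z).ncard := by
    rw [← Nat.card_coe_set_eq]
    refine Nat.card_congr (Equiv.subtypeEquivRight fun g => ?_)
    constructor
    · rintro ⟨u, hu, h⟩; exact ⟨⟨u, hu⟩, h⟩
    · rintro ⟨u, h⟩; exact ⟨u, u.2, h⟩
  have e2 : Nat.card (stb U z) = Nat.card (MulAction.stabilizer U z) := by
    refine Nat.card_congr
      { toFun := fun u => ⟨⟨u, u.2.1⟩, u.2.2⟩
        invFun := fun u => ⟨u.1, u.1.2, u.2⟩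
        left_inv := fun _ => rfl
        right_inv := fun _ => rfl }
  rw [e1, e2, ← h1, h2]

theorem rank_eqv {A : Type*} [Fintype A] [DecidableEq A] {a c : Matrix A A k}
    {b ε : Matrix A A k} (hac : a * c = b) (hca : c * a = ε) (hbb : b * b = b)
    (hεε : ε * ε = ε) : b.rank = ε.rank := by
  apply le_antisymm
  · have h1 : b = a * ε * c := by
      rw [← hca, ← mul_assoc, hac, mul_assoc, hac, hbb]
    rw [h1]
    exact (Matrix.rank_mul_le_left _ _).trans (Matrix.rank_mul_le_right _ _)
  · have h1 : ε = c * b * a := by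
      rw [← hac, ← mul_assoc, hca, mul_assoc, hca, hεε]
    rw [h1]
    exact (Matrix.rank_mul_le_left _ _).trans (Matrix.rank_mul_le_right _ _)

theorem eq_of_rank_le {A : Type*} [Fintype A] [DecidableEq A] {b c : Matrix A A k}
    (hbc : b * c = c) (hcb : c * b = c) (hcc : c * c = c) (h : b.rank ≤ c.rank) : c = b := by
  have h1 : LinearMap.range c.mulVecLin ≤ LinearMap.range b.mulVecLin := by
    rintro _ ⟨v, rfl⟩
    refine ⟨c *ᵥ v, ?_⟩
    rw [Matrix.mulVecLin_apply, Matrix.mulVecLin_apply, Matrix.mulVec_mulVec, hbc]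
  have h2 : LinearMap.range c.mulVecLin = LinearMap.range b.mulVecLin :=
    Submodule.eq_of_le_of_finrank_le h1 h
  have h3 : c * b = b := by
    apply Matrix.toLin'.injective
    apply LinearMap.ext
    intro v
    rw [Matrix.toLin'_apply, Matrix.toLin'_apply, ← Matrix.mulVec_mulVec]
    have h4 : b *ᵥ v ∈ LinearMap.range c.mulVecLin := by rw [h2]; exact ⟨v, rfl⟩
    obtain ⟨w, hw⟩ := h4
    rw [← hw, Matrix.mulVecLin_apply, Matrix.mulVec_mulVec, hcc]
  rw [← h3, hcb]

/-- the left regular representation -/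
noncomputable def Lreg (x : MonoidAlgebra k G) : Matrix G G k := Matrix.of fun g h => x.coeff (g * h⁻¹)

theorem Lreg_mul (x y : MonoidAlgebra k G) : Lreg (x * y) = Lreg x * Lreg y := by
  ext g h
  rw [Matrix.mul_apply]
  change (x * y).coeff (g * h⁻¹) = _
  rw [mul_coeff]
  refine Fintype.sum_equiv ((Equiv.inv G).trans (Equiv.mulRight g)) _ _ fun l => ?_
  change x.coeff l * y.coeff (l⁻¹ * (g * h⁻¹)) =
    x.coeff (g * (l⁻¹ * g)⁻¹) * y.coeff (l⁻¹ * g * h⁻¹)
  congr 2
  · group
  · group

theorem Lreg_mem {U : Subgroup (G × G)} {x : MonoidAlgebra k G} (hx : Fixed ⊤ x) :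
    Lreg x ∈ IA k U := by
  intro u _ g h
  change x.coeff (act u g * (act u h)⁻¹) = x.coeff (g * h⁻¹)
  have : act u g * (act u h)⁻¹ = u.1 * (g * h⁻¹) * u.1⁻¹ := by
    simp only [act]; group
  rw [this, hx.coeff_conj (Subgroup.mem_top _)]

end inv

section blk

variable {p : ℕ} [hp : Fact p.Prime] {M : Ideal AlgInt} [hMp : M.IsPrime]
  {G : Type u} [Group G] [Fintype G] [DecidableEq G] {B : Set (IrrCharacter G)}

theorem rank_Lreg (hB : IsPBlock M B) :
    (Lreg (eB M B)).rank = ∑ χ ∈ Bfin B, charDegree (χ : G → ℂ) ^ 2 := by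
  classical
  have hb := isCL_blockCoeff (M := M) hB
  let E : Matrix G G (locRing M) := Matrix.of fun g h =>
    ⟨(ofFun (blockCoeff B) : MonoidAlgebra ℂ G).coeff (g * h⁻¹), hb.lr _⟩
  have hE : E.map (locRing M).subtype = Lreg (ofFun (blockCoeff B) : MonoidAlgebra ℂ G) := by
    ext K L; rfl
  have hEE : E * E = E := by
    have h1 : (E * E).map (locRing M).subtype = E.map (locRing M).subtype := by
      rw [Matrix.map_mul, hE, ← Lreg_mul, hb.idem]
    ext K L
    exact congrFun (congrFun h1 K) L
  obtain ⟨r, h1, h2⟩ := idem_matrix hEE (IsLocalRing.residue (locRing M))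
  have hG : (Nat.card G : ℂ) ≠ 0 := by exact_mod_cast Nat.card_pos.ne'
  have h3 : r = ∑ χ ∈ Bfin B, charDegree (χ : G → ℂ) ^ 2 := by
    have h4 : (E.map (locRing M).subtype).trace = r := by
      have := congrArg (locRing M).subtype h1
      rw [map_natCast] at this
      rw [← this, Matrix.trace, Matrix.trace, map_sum]
      rfl
    rw [hE, Matrix.trace] at h4
    have h5 : ∀ g : G, (Lreg (ofFun (blockCoeff B) : MonoidAlgebra ℂ G)).diag g = blockCoeff B 1 := by
      intro g
      change blockCoeff B (g * g⁻¹) = _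
      rw [mul_inv_cancel]
    rw [Finset.sum_congr rfl fun g _ => h5 g, Finset.sum_const, Finset.card_univ, nsmul_eq_mul,
      blockCoeff, finsum_mem_eq_Bfin, ← Nat.card_eq_fintype_card, ← mul_assoc,
      mul_inv_cancel₀ hG, one_mul] at h4
    have h6 : ((∑ χ ∈ Bfin B, charDegree (χ : G → ℂ) ^ 2 : ℕ) : ℂ) = r := by
      rw [← h4]
      push_cast
      refine Finset.sum_congr rfl fun χ _ => ?_
      rw [charDegree_spec, Complex.conj_natCast, sq]
    exact_mod_cast h6.symm
  have h4 : E.map (IsLocalRing.residue (locRing M)) = Lreg (eB M B) := by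
    ext K L
    rw [Matrix.map_apply]
    exact (rd_of_mlr (hb.lr (K * L⁻¹))).symm
  rw [← h4, h2, h3]

end blk

end Cfsg.Agent.Star
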